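import Cfsg.Agent.Lib.Helper89.Dickson
import Cfsg.Agent.Lib.Helper11.QuadStable

set_option autoImplicit false

namespace Cfsg.Agent.Lib.Helper89

open Cfsg.Agent.Lib.Helper11
open scoped commutatorElement

/-! ### sections from surjections -/

/-- A surjection from a subgroup `K ≤ H` onto `T` exhibits `T` as a section of `H`. -/
theorem section_of_surjective {G T : Type*} [Group G] [Group T] (H K : Subgroup G) (hK : K ≤ H)
    (ψ : K →* T) (hψ : Function.Surjective ψ) :
    ∃ (K L : Subgroup G) (hL : (L.subgroupOf K).Normal), K ≤ H ∧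
      Nonempty ((K ⧸ L.subgroupOf K) ≃* T) := by
  have e : (ψ.ker.map K.subtype).subgroupOf K = ψ.ker :=
    Subgroup.comap_map_eq_self_of_injective K.subtype_injective _
  have hL : ((ψ.ker.map K.subtype).subgroupOf K).Normal := by rw [e]; infer_instance
  exact ⟨K, ψ.ker.map K.subtype, hL, hK,
    ⟨(QuotientGroup.quotientMulEquivOfEq e).trans
      (QuotientGroup.quotientKerEquivOfSurjective ψ hψ)⟩⟩

/-- pulling a surjection back along a homomorphism whose range contains the subgroup -/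
theorem exists_surjective_comap {M N T : Type*} [Group M] [Group N] [Group T] (f : M →* N)
    (K₁ : Subgroup N) (hK₁ : K₁ ≤ f.range) (e : K₁ →* T) (he : Function.Surjective e) :
    ∃ (K₀ : Subgroup M) (ψ : K₀ →* T), Function.Surjective ψ := by
  refine ⟨K₁.comap f, e.comp (f.subgroupComap K₁), ?_⟩
  intro t
  obtain ⟨y, rfl⟩ := he t
  obtain ⟨x, hx⟩ := hK₁ y.2
  refine ⟨⟨x, by rw [Subgroup.mem_comap, hx]; exact y.2⟩, ?_⟩
  show e (f.subgroupComap K₁ _) = e y
  congr 1
  exact Subtype.ext hx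

/-- pushing a surjection forward along an injective homomorphism -/
theorem exists_surjective_map {M N T : Type*} [Group M] [Group N] [Group T] (j : M →* N)
    (hj : Function.Injective j) (K₀ : Subgroup M) (ψ : K₀ →* T) (hψ : Function.Surjective ψ) :
    ∃ ψ' : K₀.map j →* T, Function.Surjective ψ' :=
  ⟨ψ.comp (K₀.equivMapOfInjective j hj).symm.toMonoidHom,
    hψ.comp (K₀.equivMapOfInjective j hj).symm.surjective⟩

/-- a homomorphic image of a group generated by elements mapping to `p`-elements, which is not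
a `p`-group, has more than one Sylow `p`-subgroup -/
theorem one_lt_card_sylow_range {G₀ X : Type*} [Group G₀] [Group X] [Finite X] (p : ℕ)
    [Fact p.Prime] (s : Set G₀) (φ : Subgroup.closure s →* X)
    (hs : ∀ x (hx : x ∈ s), ∃ k : ℕ, φ ⟨x, Subgroup.subset_closure hx⟩ ^ p ^ k = 1)
    (g' : Subgroup.closure s) (hg' : ∀ k : ℕ, φ g' ^ p ^ k ≠ 1) :
    1 < Nat.card (Sylow p φ.range) := by
  by_contra hcon
  have hsub : Subsingleton (Sylow p φ.range) := by
    rw [← Finite.card_le_one_iff_subsingleton]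
    omega
  obtain ⟨P⟩ : Nonempty (Sylow p φ.range) := inferInstance
  have hall := hom_mem_on_closure s φ ((P : Subgroup φ.range).map φ.range.subtype) (by
    intro x hx
    obtain ⟨k, hk⟩ := hs x hx
    have hZ : IsPGroup p (Subgroup.zpowers (⟨φ ⟨x, Subgroup.subset_closure hx⟩, ⟨_, rfl⟩⟩ :
        φ.range)) := by
      rintro ⟨g, hg⟩
      obtain ⟨j, rfl⟩ := Subgroup.mem_zpowers_iff.1 hg
      refine ⟨k, ?_⟩
      apply Subtype.ext
      apply Subtype.ext
      show (φ ⟨x, Subgroup.subset_closure hx⟩ ^ j) ^ p ^ k = 1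
      rw [← zpow_natCast, ← zpow_mul, mul_comm, zpow_mul, zpow_natCast, hk, one_zpow]
    obtain ⟨Q, hQ⟩ := hZ.exists_le_sylow
    have hQP : Q = P := Subsingleton.elim _ _
    rw [hQP] at hQ
    exact ⟨_, hQ (Subgroup.mem_zpowers _), rfl⟩) g'
  obtain ⟨y, hy, hyg⟩ := hall
  obtain ⟨k, hk⟩ := P.isPGroup' ⟨y, hy⟩
  apply hg' k
  rw [← hyg]
  have := congrArg (fun z : (P : Subgroup φ.range) => ((z.1 : φ.range) : X)) hk
  simpa using this

/-- **Quadratic pairs involve `SL₂(p)`.** Two quadratic automorphisms of a finite `𝔽_p`-module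
(`p` odd) generating a group that is not a `p`-group: some subgroup of that group maps onto
`SL₂(p)`. -/
theorem quad_pair_section {p : ℕ} [Fact p.Prime] (hp : p ≠ 2) {W : Type*} [AddCommGroup W]
    [Module (ZMod p) W] [Finite W] (a b : W ≃ₗ[ZMod p] W)
    (ha : ∀ w : W, a (a w - w) = a w - w) (hb : ∀ w : W, b (b w - w) = b w - w)
    (hnp : ¬ IsPGroup p (Subgroup.closure ({a, b} : Set (W ≃ₗ[ZMod p] W)))) :
    ∃ (K₀ : Subgroup (Subgroup.closure ({a, b} : Set (W ≃ₗ[ZMod p] W))))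
      (ψ : K₀ →* Matrix.SpecialLinearGroup (Fin 2) (ZMod p)), Function.Surjective ψ := by
  have hpp : p.Prime := Fact.out
  obtain ⟨g, hg⟩ : ∃ g : Subgroup.closure ({a, b} : Set (W ≃ₗ[ZMod p] W)),
      ∀ k : ℕ, g ^ (p ^ k) ≠ 1 := by
    by_contra hcon
    push Not at hcon
    exact hnp hcon
  have : Finite (W ≃ₗ[ZMod p] W) :=
    Finite.of_injective (fun e : W ≃ₗ[ZMod p] W => (e : W → W)) DFunLike.coe_injective
  have : Module.Finite (ZMod p) W := Module.Finite.of_finite
  have hpos : 0 < orderOf (a * b) := orderOf_pos _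
  obtain ⟨e, k, hk, hord⟩ := Nat.exists_eq_pow_mul_and_not_dvd hpos.ne' p hpp.ne_one
  have hk0 : k ≠ 0 := by
    rintro rfl
    exact hk (dvd_zero p)
  have hcop : Nat.Coprime p k := (Nat.Prime.coprime_iff_not_dvd hpp).mpr hk
  have hm0 : Nat.totient k ≠ 0 := (Nat.totient_pos.mpr (Nat.pos_of_ne_zero hk0)).ne'
  haveI : Fintype (GaloisField p (Nat.totient k)) := Fintype.ofFinite _
  have hcard : Fintype.card (GaloisField p (Nat.totient k)) = p ^ Nat.totient k := by
    rw [← Nat.card_eq_fintype_card]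
    exact GaloisField.card p _ hm0
  have hdvd : k ∣ Fintype.card (GaloisField p (Nat.totient k)) - 1 := by
    rw [hcard]
    exact (Nat.modEq_iff_dvd' (Nat.one_le_pow _ _ hpp.pos)).mp (Nat.ModEq.pow_totient hcop).symm
  set Θ := bcHom (ZMod p) (GaloisField p (Nat.totient k)) W with hΘ
  have hΘi : Function.Injective Θ := bcHom_injective _ _ _
  have ha' := bcHom_quad (ZMod p) (GaloisField p (Nat.totient k)) W a ha
  have hb' := bcHom_quad (ZMod p) (GaloisField p (Nat.totient k)) W b hb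
  have he : (Θ a * Θ b) ^ (p ^ e * (Fintype.card (GaloisField p (Nat.totient k)) - 1)) = 1 := by
    rw [← map_mul, ← map_pow]
    have : (a * b) ^ (p ^ e * (Fintype.card (GaloisField p (Nat.totient k)) - 1)) = 1 := by
      rw [← orderOf_dvd_iff_pow_eq_one, hord]
      exact Nat.mul_dvd_mul_left _ hdvd
    rw [this, map_one]
  have hcl : (Subgroup.closure ({a, b} : Set (W ≃ₗ[ZMod p] W))).map Θ =
      Subgroup.closure {Θ a, Θ b} := by
    rw [MonoidHom.map_closure, Set.image_pair]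
  have hg1 : Θ g.1 ∈ Subgroup.closure {Θ a, Θ b} := by
    rw [← hcl]
    exact Subgroup.mem_map_of_mem Θ g.2
  have hg2 : ∀ j : ℕ, Θ g.1 ^ (p ^ j) ≠ 1 := by
    intro j hj
    apply hg j
    apply Subtype.ext
    apply hΘi
    rw [Subgroup.coe_pow, map_pow, hj, Subgroup.coe_one, map_one]
  obtain ⟨φ, g', hφ⟩ := quad_main (p := p) (K := GaloisField p (Nat.totient k))
    (Module.finrank (GaloisField p (Nat.totient k))
      (Fin (Module.finrank (ZMod p) W) → GaloisField p (Nat.totient k)))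
    (Fin (Module.finrank (ZMod p) W) → GaloisField p (Nat.totient k)) le_rfl (Θ a) (Θ b) ha' hb'
    ⟨e, he⟩ (Θ g.1) hg1 hg2
  have : Finite (Matrix.SpecialLinearGroup (Fin 2) (GaloisField p (Nat.totient k))) := by
    unfold Matrix.SpecialLinearGroup
    infer_instance
  have hsyl : 1 < Nat.card (Sylow p φ.range) := by
    apply one_lt_card_sylow_range p _ φ _ g' hφ
    intro x hx
    refine ⟨1, ?_⟩
    rw [pow_one, ← map_pow]
    have : (⟨x, Subgroup.subset_closure hx⟩ : Subgroup.closure {Θ a, Θ b}) ^ p = 1 := by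
      apply Subtype.ext
      rw [Subgroup.coe_pow]
      show x ^ p = 1
      rcases hx with hx | hx
      · rw [hx]; exact quad_pow_char p (Θ a) ha'
      · rw [Set.mem_singleton_iff.mp hx]; exact quad_pow_char p (Θ b) hb'
    rw [this, map_one]
  obtain ⟨K₁, hK₁, ⟨e₁⟩⟩ := dickson_sl2 p hp φ.range hsyl
  -- the composite homomorphism from the closure of `a, b`
  let Θ' : Subgroup.closure ({a, b} : Set (W ≃ₗ[ZMod p] W)) →* Subgroup.closure {Θ a, Θ b} :=
    (Subgroup.inclusion hcl.le).comp (Θ.subgroupMap _)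
  have hΘ' : Function.Surjective Θ' := by
    rintro ⟨y, hy⟩
    rw [← hcl] at hy
    obtain ⟨x, hx, rfl⟩ := hy
    exact ⟨⟨x, hx⟩, rfl⟩
  refine exists_surjective_comap (φ.comp Θ') K₁ ?_ e₁.toMonoidHom e₁.surjective
  intro y hy
  obtain ⟨c, rfl⟩ := hK₁ hy
  obtain ⟨d, rfl⟩ := hΘ' c
  exact ⟨d, rfl⟩

/-- conjugates of quadratically acting elements act quadratically -/
theorem quad_conj {A M : Type*} [Group A] [Group M] (ρ : M →* MulAut A) (a h : M)
    (ha : ∀ v : A, ρ a (ρ a v / v) = ρ a v / v) :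
    ∀ v : A, ρ (h * a * h⁻¹) (ρ (h * a * h⁻¹) v / v) = ρ (h * a * h⁻¹) v / v := by
  intro v
  have h1 := ha (ρ h⁻¹ v)
  have h3 : ρ h (ρ h⁻¹ v) = v := by
    rw [← MulAut.mul_apply, ← map_mul, mul_inv_cancel, map_one]; rfl
  have h4 : ρ (h * a * h⁻¹) v / v = ρ h (ρ a (ρ h⁻¹ v) / ρ h⁻¹ v) := by
    rw [map_div, h3, map_mul, map_mul]; rfl
  rw [h4]
  have h5 : ρ (h * a * h⁻¹) (ρ h (ρ a (ρ h⁻¹ v) / ρ h⁻¹ v)) =
      ρ h (ρ a (ρ a (ρ h⁻¹ v) / ρ h⁻¹ v)) := by
    have : ρ h⁻¹ (ρ h (ρ a (ρ h⁻¹ v) / ρ h⁻¹ v)) = ρ a (ρ h⁻¹ v) / ρ h⁻¹ v := by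
      rw [← MulAut.mul_apply, ← map_mul, inv_mul_cancel, map_one]; rfl
    rw [map_mul, map_mul, MulAut.mul_apply, MulAut.mul_apply, this]
  rw [h5, h1]

/-- **Quadratic pairs involve `SL₂(p)`, action form.** If `x, y` act quadratically on a finite
abelian group `A` of exponent `p` (`p` odd) through `ρ : M →* MulAut A` and some element of
`⟨x, y⟩` does not act as a `p`-element, then a subgroup of `⟨x, y⟩` maps onto `SL₂(p)`. -/
theorem quad_section_of_action' {p : ℕ} [Fact p.Prime] (hp : p ≠ 2) {A : Type*} [CommGroup A]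
    [Finite A] (hA : ∀ x : A, x ^ p = 1) {M : Type*} [Group M] (ρ : M →* MulAut A) (x y : M)
    (hx : ∀ v : A, ρ x (ρ x v / v) = ρ x v / v) (hy : ∀ v : A, ρ y (ρ y v / v) = ρ y v / v)
    (hnp : ∃ d ∈ Subgroup.closure ({x, y} : Set M), ∀ k : ℕ, ρ d ^ p ^ k ≠ 1) :
    ∃ (K₀ : Subgroup M) (ψ : K₀ →* Matrix.SpecialLinearGroup (Fin 2) (ZMod p)),
      K₀ ≤ Subgroup.closure {x, y} ∧ Function.Surjective ψ := by
  letI : Module (ZMod p) (Additive A) :=
    AddCommGroup.zmodModule (n := p) (fun x => congrArg Additive.ofMul (hA x.toMul))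
  have hinj := linHom_injective p A
  obtain ⟨f₀, hf₀⟩ : ∃ f₀ : M →* (Additive A ≃ₗ[ZMod p] Additive A), f₀ = (linHom p A).comp ρ :=
    ⟨_, rfl⟩
  have hcl : (Subgroup.closure ({x, y} : Set M)).map f₀ = Subgroup.closure {f₀ x, f₀ y} := by
    rw [MonoidHom.map_closure, Set.image_pair]
  have ha : ∀ w : Additive A, f₀ x (f₀ x w - w) = f₀ x w - w := by
    intro w
    rw [hf₀]
    exact congrArg Additive.ofMul (hx w.toMul)
  have hb : ∀ w : Additive A, f₀ y (f₀ y w - w) = f₀ y w - w := by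
    intro w
    rw [hf₀]
    exact congrArg Additive.ofMul (hy w.toMul)
  have hnp' : ¬ IsPGroup p (Subgroup.closure ({f₀ x, f₀ y} :
      Set (Additive A ≃ₗ[ZMod p] Additive A))) := by
    intro h
    obtain ⟨d, hd, hdk⟩ := hnp
    have hd' : f₀ d ∈ Subgroup.closure {f₀ x, f₀ y} := by
      rw [← hcl]; exact Subgroup.mem_map_of_mem _ hd
    obtain ⟨k, hk⟩ := h ⟨_, hd'⟩
    apply hdk k
    apply hinj
    have h1 := congrArg Subtype.val hk
    rw [Subgroup.coe_pow, Subgroup.coe_one] at h1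
    rw [map_pow, map_one]
    have h2 : f₀ d ^ p ^ k = 1 := h1
    rw [hf₀] at h2
    exact h2
  obtain ⟨K₁, ψ₁, hψ₁⟩ := quad_pair_section hp (f₀ x) (f₀ y) ha hb hnp'
  let f₁ : Subgroup.closure ({x, y} : Set M) →* Subgroup.closure {f₀ x, f₀ y} :=
    (Subgroup.inclusion hcl.le).comp (f₀.subgroupMap _)
  have hf₁ : Function.Surjective f₁ := by
    rintro ⟨z, hz⟩
    rw [← hcl] at hz
    obtain ⟨d, hd, rfl⟩ := hz
    exact ⟨⟨d, hd⟩, rfl⟩
  obtain ⟨K₂, ψ₂, hψ₂⟩ := exists_surjective_comap f₁ K₁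
    (fun z _ => by obtain ⟨d, rfl⟩ := hf₁ z; exact ⟨d, rfl⟩) ψ₁ hψ₁
  obtain ⟨ψ₃, hψ₃⟩ := exists_surjective_map (Subgroup.closure ({x, y} : Set M)).subtype
    (Subgroup.subtype_injective _) K₂ ψ₂ hψ₂
  refine ⟨K₂.map (Subgroup.closure ({x, y} : Set M)).subtype, ψ₃, ?_, hψ₃⟩
  rintro _ ⟨d, -, rfl⟩
  exact d.2

/-- `quad_section_of_action'` for a group `A` with a commutativity hypothesis instead of a
`CommGroup` instance (avoids instance mismatches for subgroups). -/
theorem quad_section_of_action {p : ℕ} [Fact p.Prime] (hp : p ≠ 2) {A : Type*} [Group A]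
    [Finite A] (hcomm : ∀ x y : A, x * y = y * x) (hA : ∀ x : A, x ^ p = 1) {M : Type*} [Group M]
    (ρ : M →* MulAut A) (x y : M)
    (hx : ∀ v : A, ρ x (ρ x v / v) = ρ x v / v) (hy : ∀ v : A, ρ y (ρ y v / v) = ρ y v / v)
    (hnp : ∃ d ∈ Subgroup.closure ({x, y} : Set M), ∀ k : ℕ, ρ d ^ p ^ k ≠ 1) :
    ∃ (K₀ : Subgroup M) (ψ : K₀ →* Matrix.SpecialLinearGroup (Fin 2) (ZMod p)),
      K₀ ≤ Subgroup.closure {x, y} ∧ Function.Surjective ψ := by
  letI : CommGroup A := { ‹Group A› with mul_comm := hcomm }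
  exact quad_section_of_action' hp hA ρ x y hx hy hnp

/-- the conjugation action of a normalising subgroup on an elementary abelian subgroup: a
quadratic commutator condition gives a quadratic automorphism -/
theorem quad_of_commutator {G : Type*} [Group G] (V H : Subgroup G) [IsMulCommutative V]
    (hHV : H ≤ Subgroup.normalizer (V : Set G)) (a : H)
    (hq : ⁅⁅V, Subgroup.zpowers (a : G)⁆, Subgroup.zpowers (a : G)⁆ = ⊥) (v : V) :
    (V.normalizerMonoidHom.comp (Subgroup.inclusion hHV)) a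
        ((V.normalizerMonoidHom.comp (Subgroup.inclusion hHV)) a v / v) =
      (V.normalizerMonoidHom.comp (Subgroup.inclusion hHV)) a v / v := by
  have hρ : ∀ (h : H) (v : V),
      (((V.normalizerMonoidHom.comp (Subgroup.inclusion hHV)) h v : V) : G) =
        h * v * (h : G)⁻¹ := fun h v => rfl
  apply Subtype.ext
  rw [hρ, Subgroup.coe_div, hρ]
  have h1 : ⁅⁅(v : G), (a : G)⁆, (a : G)⁆ = 1 := by
    have : ⁅⁅(v : G), (a : G)⁆, (a : G)⁆ ∈
        ⁅⁅V, Subgroup.zpowers (a : G)⁆, Subgroup.zpowers (a : G)⁆ :=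
      Subgroup.commutator_mem_commutator
        (Subgroup.commutator_mem_commutator v.2 (Subgroup.mem_zpowers _)) (Subgroup.mem_zpowers _)
    rw [hq] at this
    exact Subgroup.mem_bot.mp this
  have hc : Commute ⁅(a : G), (v : G)⁆ (a : G) := by
    have := (commutatorElement_eq_one_iff_commute.mp h1).inv_left
    rwa [commutatorElement_inv] at this
  have e : (a : G) * (v : G) * (a : G)⁻¹ / (v : G) = ⁅(a : G), (v : G)⁆ := by
    rw [div_eq_mul_inv, commutatorElement_def]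
  show (a : G) * ((a : G) * (v : G) * (a : G)⁻¹ / (v : G)) * (a : G)⁻¹ =
    (a : G) * (v : G) * (a : G)⁻¹ / (v : G)
  rw [e, ← hc.eq, mul_inv_cancel_right]

end Cfsg.Agent.Lib.Helper89
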