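import Mathlib
import Cfsg.Agent.Lib.Helper44.ReflF3

/-!
# Geometry of norm-`c` vectors over `𝔽₃` (helper89)

Separation lemmas for vectors of a fixed non-zero norm in a non-degenerate quadratic space of
dimension at least five over the field of three elements.
-/

set_option autoImplicit false

namespace Cfsg.Agent.Lib.Helper89.ReflGeom

open Module Cfsg.Agent.Lib.Helper14 Cfsg.Agent.Lib.Helper44

section geom

variable {V : Type*} [AddCommGroup V] [Module (ZMod 3) V] [FiniteDimensional (ZMod 3) V]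

theorem zmod3_three : (3 : ZMod 3) = 0 := by decide

omit [FiniteDimensional (ZMod 3) V] in
theorem quad_add_smul (Q : QuadraticForm (ZMod 3) V) (x y : V) (t : ZMod 3) :
    Q (x + t • y) = Q x + t * t * Q y + t * QuadraticMap.polar ⇑Q x y := by
  rw [QuadraticMap.map_add Q x (t • y), QuadraticMap.map_smul, QuadraticMap.polar_smul_right]
  simp only [smul_eq_mul]

omit [FiniteDimensional (ZMod 3) V] in
theorem exists_polar_ne (Q : QuadraticForm (ZMod 3) V)
    (hQ : (QuadraticMap.polarBilin Q).Nondegenerate) {u : V} (hu : u ≠ 0) :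
    ∃ y, QuadraticMap.polar ⇑Q u y ≠ 0 := by
  by_contra hcon
  push Not at hcon
  exact hu (hQ.1 u (fun y => by simpa using hcon y))

omit [FiniteDimensional (ZMod 3) V] in
/-- (G3) two non-orthogonal, non-proportional vectors of norm `c` are separated by a vector of
norm `c` orthogonal to the first but not to the second -/
theorem exists_sep_three (Q : QuadraticForm (ZMod 3) V)
    (hQ : (QuadraticMap.polarBilin Q).Nondegenerate) {c : ZMod 3} (hc : c ≠ 0) {v v' : V}
    (hv : Q v = c) (hv' : Q v' = c) (hp : QuadraticMap.polar ⇑Q v v' ≠ 0) (h1 : v' ≠ v)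
    (h2 : v' ≠ -v) :
    ∃ w, Q w = c ∧ QuadraticMap.polar ⇑Q w v = 0 ∧ QuadraticMap.polar ⇑Q w v' ≠ 0 := by
  have h3 := zmod3_three
  have hcc := zmod3_mul_self hc
  have hpp := zmod3_mul_self hp
  have hvv : QuadraticMap.polar ⇑Q v v = 2 * c := by rw [polar_self_eq, hv]
  obtain ⟨p, hpdef⟩ : ∃ p, p = QuadraticMap.polar ⇑Q v v' := ⟨_, rfl⟩
  rw [← hpdef] at hp hpp
  -- `u' = v' + (p c) • v` is isotropic, non-zero and orthogonal to `v`
  obtain ⟨u', hu'def⟩ : ∃ u', u' = v' + (p * c) • v := ⟨_, rfl⟩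
  have hQu' : Q u' = 0 := by
    rw [hu'def, quad_add_smul, hv, hv', QuadraticMap.polar_comm, ← hpdef]
    linear_combination (p * p * c) * hcc + (2 * c) * hpp + c * h3
  have hvu' : QuadraticMap.polar ⇑Q v u' = 0 := by
    rw [hu'def, QuadraticMap.polar_add_right, QuadraticMap.polar_smul_right, hvv, ← hpdef,
      smul_eq_mul]
    linear_combination (2 * p) * hcc + p * h3
  have hu'0 : u' ≠ 0 := by
    intro h0
    have hpc : p * c ≠ 0 := mul_ne_zero hp hc
    rcases zmod3_eq_or (one_ne_zero (α := ZMod 3)) hpc with h | h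
    · rw [hu'def, h, one_smul] at h0
      exact h2 (eq_neg_of_add_eq_zero_left h0)
    · rw [hu'def, h, neg_smul, one_smul] at h0
      exact h1 (sub_eq_zero.mp (by rw [sub_eq_add_neg]; exact h0))
  obtain ⟨y, hy⟩ := exists_polar_ne Q hQ hu'0
  obtain ⟨x, hxdef⟩ : ∃ x, x = y + (QuadraticMap.polar ⇑Q y v * c) • v := ⟨_, rfl⟩
  have hu'v : QuadraticMap.polar ⇑Q u' v = 0 := by rw [QuadraticMap.polar_comm]; exact hvu'
  have hxv : QuadraticMap.polar ⇑Q x v = 0 := by
    rw [hxdef, QuadraticMap.polar_add_left, QuadraticMap.polar_smul_left, hvv, smul_eq_mul]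
    linear_combination (2 * QuadraticMap.polar ⇑Q y v) * hcc + QuadraticMap.polar ⇑Q y v * h3
  obtain ⟨μ, hμdef⟩ : ∃ μ, μ = QuadraticMap.polar ⇑Q x u' := ⟨_, rfl⟩
  have hμ : μ ≠ 0 := by
    rw [hμdef, hxdef, QuadraticMap.polar_add_left, QuadraticMap.polar_smul_left, hvu',
      smul_eq_mul, mul_zero, add_zero, QuadraticMap.polar_comm]
    exact hy
  obtain ⟨w, hwdef⟩ : ∃ w, w = x + ((c - Q x) * μ⁻¹) • u' := ⟨_, rfl⟩
  have hwv : QuadraticMap.polar ⇑Q w v = 0 := by
    rw [hwdef, QuadraticMap.polar_add_left, QuadraticMap.polar_smul_left, hxv, hu'v, smul_zero,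
      add_zero]
  have hu'u' : QuadraticMap.polar ⇑Q u' u' = 0 := by rw [polar_self_eq, hQu', mul_zero]
  have hwu' : QuadraticMap.polar ⇑Q w u' = μ := by
    rw [hwdef, QuadraticMap.polar_add_left, QuadraticMap.polar_smul_left, hu'u', smul_zero,
      add_zero, ← hμdef]
  refine ⟨w, ?_, hwv, ?_⟩
  · rw [hwdef, quad_add_smul, hQu', ← hμdef, mul_zero, add_zero, mul_assoc, inv_mul_cancel₀ hμ]
    ring
  · have hv'eq : v' = u' + (-(p * c)) • v := by rw [hu'def, neg_smul]; abel
    rw [hv'eq, QuadraticMap.polar_add_right, QuadraticMap.polar_smul_right, hwv, hwu',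
      smul_zero, add_zero]
    exact hμ

/-- a non-zero isotropic vector orthogonal to two given vectors, one of them of norm `c` -/
theorem exists_isotropic_orth (Q : QuadraticForm (ZMod 3) V)
    (hQ : (QuadraticMap.polarBilin Q).Nondegenerate) (hn : 5 ≤ finrank (ZMod 3) V)
    {c : ZMod 3} (hc : c ≠ 0) {v : V} (v' : V) (hv : Q v = c) :
    ∃ z, z ≠ 0 ∧ Q z = 0 ∧ QuadraticMap.polar ⇑Q v z = 0 ∧ QuadraticMap.polar ⇑Q v' z = 0 := by
  have hv0 : Q v ≠ 0 := by rw [hv]; exact hc
  obtain ⟨e1, he1, hve1, hv'e1⟩ := exists_orth_pair_repr zmod3_two_ne Q hQ hn v v' hv0 c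
  obtain ⟨e2, he2, hve2, hv'e2⟩ := exists_orth_pair_repr zmod3_two_ne Q hQ hn v v' hv0 (-c)
  obtain ⟨f, hfdef⟩ : ∃ f : V →ₗ[ZMod 3] (Fin 4 → ZMod 3), f = LinearMap.pi
      ![QuadraticMap.polarBilin Q v, QuadraticMap.polarBilin Q v', QuadraticMap.polarBilin Q e1,
        QuadraticMap.polarBilin Q e2] := ⟨_, rfl⟩
  have hker : LinearMap.ker f ≠ ⊥ := by
    apply LinearMap.ker_ne_bot_of_finrank_lt
    rw [Module.finrank_fintype_fun_eq_card, Fintype.card_fin]
    omega
  obtain ⟨e3, he3, he30⟩ := (Submodule.ne_bot_iff _).mp hker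
  rw [LinearMap.mem_ker] at he3
  have hf : ∀ i : Fin 4, f e3 i = 0 := fun i => by rw [he3]; rfl
  have hve3 : QuadraticMap.polar ⇑Q v e3 = 0 := by
    have := hf 0
    rw [hfdef] at this
    simpa using this
  have hv'e3 : QuadraticMap.polar ⇑Q v' e3 = 0 := by
    have := hf 1
    rw [hfdef] at this
    simpa using this
  have he1e3 : QuadraticMap.polar ⇑Q e1 e3 = 0 := by
    have := hf 2
    rw [hfdef] at this
    simpa using this
  have he2e3 : QuadraticMap.polar ⇑Q e2 e3 = 0 := by
    have := hf 3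
    rw [hfdef] at this
    simpa using this
  have h2c : c ≠ -c := by
    intro h
    apply hc
    have h3 := zmod3_three
    have h4 : 2 * c = 0 := by linear_combination h
    rcases mul_eq_zero.mp h4 with h5 | h5
    · exact absurd h5 zmod3_two_ne
    · exact h5
  by_cases h0 : Q e3 = 0
  · exact ⟨e3, he30, h0, hve3, hv'e3⟩
  rcases zmod3_eq_or hc h0 with h | h
  · refine ⟨e3 + e2, ?_, ?_, ?_, ?_⟩
    · intro hz
      have : e3 = -e2 := eq_neg_of_add_eq_zero_left hz
      rw [this, QuadraticMap.map_neg, he2] at h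
      exact h2c h.symm
    · rw [QuadraticMap.map_add Q e3 e2, h, he2, QuadraticMap.polar_comm, he2e3]; ring
    · rw [QuadraticMap.polar_add_right, hve3, hve2, add_zero]
    · rw [QuadraticMap.polar_add_right, hv'e3, hv'e2, add_zero]
  · refine ⟨e3 + e1, ?_, ?_, ?_, ?_⟩
    · intro hz
      have : e3 = -e1 := eq_neg_of_add_eq_zero_left hz
      rw [this, QuadraticMap.map_neg, he1] at h
      exact h2c h
    · rw [QuadraticMap.map_add Q e3 e1, h, he1, QuadraticMap.polar_comm, he1e3]; ring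
    · rw [QuadraticMap.polar_add_right, hve3, hve1, add_zero]
    · rw [QuadraticMap.polar_add_right, hv'e3, hv'e1, add_zero]

/-- (G2) two orthogonal vectors of norm `c` are separated by a vector of norm `c` orthogonal to
the second but not to the first -/
theorem exists_sep_two (Q : QuadraticForm (ZMod 3) V)
    (hQ : (QuadraticMap.polarBilin Q).Nondegenerate) (hn : 5 ≤ finrank (ZMod 3) V)
    {c : ZMod 3} (hc : c ≠ 0) {v v' : V} (hv : Q v = c)
    (hp : QuadraticMap.polar ⇑Q v v' = 0) :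
    ∃ w, Q w = c ∧ QuadraticMap.polar ⇑Q w v' = 0 ∧ QuadraticMap.polar ⇑Q w v ≠ 0 ∧ w ≠ v ∧
      w ≠ -v := by
  obtain ⟨z, hz0, hQz, hvz, hv'z⟩ := exists_isotropic_orth Q hQ hn hc v' hv
  have h3 := zmod3_three
  refine ⟨v + z, ?_, ?_, ?_, ?_, ?_⟩
  · rw [QuadraticMap.map_add Q v z, hv, hQz, hvz]; ring
  · rw [QuadraticMap.polar_add_left, hp, QuadraticMap.polar_comm, hv'z, add_zero]
  · rw [QuadraticMap.polar_add_left, polar_self_eq, hv, QuadraticMap.polar_comm, hvz, add_zero]
    exact mul_ne_zero zmod3_two_ne hc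
  · intro h
    exact hz0 (by simpa using h)
  · intro h
    have hz : z = -v + -v := by
      calc z = (v + z) - v := by abel
        _ = -v - v := by rw [h]
        _ = -v + -v := by abel
    have hz' : z = v := by
      rw [hz]
      have : (3 : ZMod 3) • v = 0 := by rw [h3, zero_smul]
      have e : (3 : ZMod 3) • v = v + v + v := by
        rw [show (3 : ZMod 3) = 1 + 1 + 1 by norm_num, add_smul, add_smul, one_smul]
      rw [e] at this
      have h4 : -v + -v = v - (v + v + v) := by abel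
      rw [h4, this, sub_zero]
    rw [hz', hv] at hQz
    exact hc hQz

end geom

end Cfsg.Agent.Lib.Helper89.ReflGeom
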