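import Cfsg.Agent.Lib.Helper89.SL2Count

/-!
# Generation of `SL₂(k(α))` by `x(k)` and `y(kα)` (Helper89)

For fields `k ⊆ K`, `2 ≠ 0` in `k`, some `c ∈ k` with `c ≠ 0`, `c² ≠ 1`, and `α ∈ K` nonzero
algebraic over `k`, the subgroup of `SL₂(K)` generated by the `uSL c` and `lSL (c α)`, `c ∈ k`,
contains `uSL a` and `lSL a` for every `a ∈ k(α)`.

The proof is elementary: the group is normalised by `diag(c, 1)` (`twist`) and by the
antidiagonal matrix with entries `1, α` (`swp`); the cusps `∑ β^(2^i)/c_i` (`β = α⁻¹`) are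
reached by iterated conjugation (`chain`); a linear dependence among `1, β, β², β⁴, …` gives a
coincidence of two such cusps, hence an upper triangular element with diagonal entry
`α^(2^j)/c`; from this the transvection `uSL β` is obtained, and then a Weyl element.
-/

set_option autoImplicit false

namespace Cfsg.Agent.Lib.Helper89.Adj

open Matrix Cfsg.Agent.Lib.Helper5.SL2 Cfsg.Agent.Lib.Helper89

variable {K : Type*} [Field K]

/-! ### two automorphisms of `SL₂(K)` -/

/-- conjugation by `diag(c, 1)` -/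
def twist (c : K) (hc : c ≠ 0) (g : SpecialLinearGroup (Fin 2) K) :
    SpecialLinearGroup (Fin 2) K :=
  ⟨!![g.1 0 0, c * g.1 0 1; c⁻¹ * g.1 1 0, g.1 1 1], by
    rw [Matrix.det_fin_two_of]
    have := sl_det g
    field_simp
    linear_combination this⟩

theorem twist_00 (c : K) (hc : c ≠ 0) (g : SpecialLinearGroup (Fin 2) K) :
    (twist c hc g).1 0 0 = g.1 0 0 := by simp [twist]
theorem twist_01 (c : K) (hc : c ≠ 0) (g : SpecialLinearGroup (Fin 2) K) :
    (twist c hc g).1 0 1 = c * g.1 0 1 := by simp [twist]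
theorem twist_10 (c : K) (hc : c ≠ 0) (g : SpecialLinearGroup (Fin 2) K) :
    (twist c hc g).1 1 0 = c⁻¹ * g.1 1 0 := by simp [twist]
theorem twist_11 (c : K) (hc : c ≠ 0) (g : SpecialLinearGroup (Fin 2) K) :
    (twist c hc g).1 1 1 = g.1 1 1 := by simp [twist]

theorem twist_mul (c : K) (hc : c ≠ 0) (g h : SpecialLinearGroup (Fin 2) K) :
    twist c hc (g * h) = twist c hc g * twist c hc h := by
  apply sl_ext <;>
    simp only [sl_mul_00, sl_mul_01, sl_mul_10, sl_mul_11, twist_00, twist_01, twist_10,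
      twist_11] <;> field_simp

/-- `twist` as a homomorphism -/
def twistHom (c : K) (hc : c ≠ 0) :
    SpecialLinearGroup (Fin 2) K →* SpecialLinearGroup (Fin 2) K :=
  MonoidHom.mk' (twist c hc) (twist_mul c hc)

theorem twist_uSL (c : K) (hc : c ≠ 0) (a : K) : twist c hc (uSL a) = uSL (c * a) := by
  apply sl_ext <;> simp [twist_00, twist_01, twist_10, twist_11, uSL_00, uSL_01, uSL_10, uSL_11]

theorem twist_lSL (c : K) (hc : c ≠ 0) (a : K) : twist c hc (lSL a) = lSL (c⁻¹ * a) := by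
  apply sl_ext <;> simp [twist_00, twist_01, twist_10, twist_11, lSL_00, lSL_01, lSL_10, lSL_11]

/-- conjugation by the antidiagonal matrix with entries `1` and `α` -/
def swp (α : K) (hα : α ≠ 0) (g : SpecialLinearGroup (Fin 2) K) :
    SpecialLinearGroup (Fin 2) K :=
  ⟨!![g.1 1 1, α⁻¹ * g.1 1 0; α * g.1 0 1, g.1 0 0], by
    rw [Matrix.det_fin_two_of]
    have := sl_det g
    field_simp
    linear_combination this⟩

theorem swp_00 (α : K) (hα : α ≠ 0) (g : SpecialLinearGroup (Fin 2) K) :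
    (swp α hα g).1 0 0 = g.1 1 1 := by simp [swp]
theorem swp_01 (α : K) (hα : α ≠ 0) (g : SpecialLinearGroup (Fin 2) K) :
    (swp α hα g).1 0 1 = α⁻¹ * g.1 1 0 := by simp [swp]
theorem swp_10 (α : K) (hα : α ≠ 0) (g : SpecialLinearGroup (Fin 2) K) :
    (swp α hα g).1 1 0 = α * g.1 0 1 := by simp [swp]
theorem swp_11 (α : K) (hα : α ≠ 0) (g : SpecialLinearGroup (Fin 2) K) :
    (swp α hα g).1 1 1 = g.1 0 0 := by simp [swp]

theorem swp_mul (α : K) (hα : α ≠ 0) (g h : SpecialLinearGroup (Fin 2) K) :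
    swp α hα (g * h) = swp α hα g * swp α hα h := by
  apply sl_ext <;>
    simp only [sl_mul_00, sl_mul_01, sl_mul_10, sl_mul_11, swp_00, swp_01, swp_10,
      swp_11] <;> field_simp <;> ring

/-- `swp` as a homomorphism -/
def swpHom (α : K) (hα : α ≠ 0) :
    SpecialLinearGroup (Fin 2) K →* SpecialLinearGroup (Fin 2) K :=
  MonoidHom.mk' (swp α hα) (swp_mul α hα)

theorem swp_uSL (α : K) (hα : α ≠ 0) (a : K) : swp α hα (uSL a) = lSL (α * a) := by
  apply sl_ext <;> simp [swp_00, swp_01, swp_10, swp_11, uSL_00, uSL_01, uSL_10, uSL_11,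
    lSL_00, lSL_01, lSL_10, lSL_11]

theorem swp_lSL (α : K) (hα : α ≠ 0) (a : K) : swp α hα (lSL a) = uSL (α⁻¹ * a) := by
  apply sl_ext <;> simp [swp_00, swp_01, swp_10, swp_11, uSL_00, uSL_01, uSL_10, uSL_11,
    lSL_00, lSL_01, lSL_10, lSL_11]

/-- a homomorphism mapping generators into the closure maps the closure into itself -/
theorem hom_mem_closure {G : Type*} [Group G] (S : Set G) (φ : G →* G)
    (hS : ∀ s ∈ S, φ s ∈ Subgroup.closure S) {g : G} (hg : g ∈ Subgroup.closure S) :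
    φ g ∈ Subgroup.closure S := by
  have h : Subgroup.closure S ≤ (Subgroup.closure S).comap φ := by
    rw [Subgroup.closure_le]
    intro s hs
    exact hS s hs
  exact h hg

/-! ### the group -/

variable (k : Type*) [Field k] [Algebra k K]

/-- the generators `x(c)`, `y(c α)`, `c ∈ k` -/
def gens (α : K) : Set (SpecialLinearGroup (Fin 2) K) :=
  {g | ∃ c : k, g = uSL (algebraMap k K c)} ∪ {g | ∃ c : k, g = lSL (algebraMap k K c * α)}

/-- the group generated by `x(k)` and `y(k α)` -/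
def HH (α : K) : Subgroup (SpecialLinearGroup (Fin 2) K) := Subgroup.closure (gens k α)

variable {k}

theorem uSL_mem_HH (α : K) (c : k) : uSL (algebraMap k K c) ∈ HH k α :=
  Subgroup.subset_closure (Or.inl ⟨c, rfl⟩)

theorem lSL_mem_HH (α : K) (c : k) : lSL (algebraMap k K c * α) ∈ HH k α :=
  Subgroup.subset_closure (Or.inr ⟨c, rfl⟩)

theorem twist_mem_HH (α : K) (c : k) (hc : c ≠ 0) {g : SpecialLinearGroup (Fin 2) K}
    (hg : g ∈ HH k α) :
    twist (algebraMap k K c) (by simpa using hc) g ∈ HH k α := by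
  have hc' : algebraMap k K c ≠ 0 := by simpa using hc
  refine hom_mem_closure (gens k α) (twistHom (algebraMap k K c) hc') ?_ hg
  rintro s (⟨d, rfl⟩ | ⟨d, rfl⟩)
  · show twist (algebraMap k K c) hc' _ ∈ _
    rw [twist_uSL, ← map_mul]
    exact uSL_mem_HH α _
  · show twist (algebraMap k K c) hc' _ ∈ _
    rw [twist_lSL, ← map_inv₀, ← mul_assoc, ← map_mul]
    exact lSL_mem_HH α _

theorem swp_mem_HH (α : K) (hα : α ≠ 0) {g : SpecialLinearGroup (Fin 2) K}
    (hg : g ∈ HH k α) : swp α hα g ∈ HH k α := by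
  refine hom_mem_closure (gens k α) (swpHom α hα) ?_ hg
  rintro s (⟨d, rfl⟩ | ⟨d, rfl⟩)
  · show swp α hα _ ∈ _
    rw [swp_uSL, mul_comm]
    exact lSL_mem_HH α _
  · show swp α hα _ ∈ _
    rw [swp_lSL]
    have : α⁻¹ * (algebraMap k K d * α) = algebraMap k K d := by field_simp
    rw [this]
    exact uSL_mem_HH α _

/-- `A` is stable under multiplication by `k` -/
theorem smul_mem_aSet (α : K) (c : k) {a : K} (ha : a ∈ aSet (HH k α)) :
    algebraMap k K c * a ∈ aSet (HH k α) := by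
  by_cases hc : c = 0
  · rw [hc, map_zero, zero_mul]; exact zero_mem_aSet _
  · have := twist_mem_HH α c hc ha
    rwa [twist_uSL] at this

theorem algebraMap_mem_aSet (α : K) (c : k) : algebraMap k K c ∈ aSet (HH k α) :=
  uSL_mem_HH α c

/-- `B = α A` -/
theorem lSL_mem_iff (α : K) (hα : α ≠ 0) (a : K) :
    lSL (α * a) ∈ HH k α ↔ a ∈ aSet (HH k α) := by
  constructor
  · intro h
    have := swp_mem_HH α hα h
    rw [swp_lSL] at this
    have e : α⁻¹ * (α * a) = a := by field_simp
    rwa [e] at this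
  · intro h
    have := swp_mem_HH α hα h
    rwa [swp_uSL] at this

/-- the torus trick: for an upper triangular element of the group, `p q ∈ A` -/
theorem mul_mem_aSet_of_upper (h2 : (2 : k) ≠ 0) (α : K) {g : SpecialLinearGroup (Fin 2) K}
    (hg : g ∈ HH k α) (h10 : g.1 1 0 = 0) : g.1 0 0 * g.1 0 1 ∈ aSet (HH k α) := by
  have h2' : algebraMap k K 2 ≠ 0 := by simpa using h2
  have ht := twist_mem_HH α 2 h2 hg
  have hm := (HH k α).mul_mem ht ((HH k α).inv_mem hg)
  have hd := sl_det g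
  rw [h10, mul_zero, sub_zero] at hd
  have e : twist (algebraMap k K 2) h2' g * g⁻¹ = uSL (g.1 0 0 * g.1 0 1) := by
    have h2K : algebraMap k K 2 = 2 := map_ofNat _ 2
    apply sl_ext <;>
      simp only [sl_mul_00, sl_mul_01, sl_mul_10, sl_mul_11, sl_inv_00, sl_inv_01, sl_inv_10,
        sl_inv_11, twist_00, twist_01, twist_10, twist_11, uSL_00, uSL_01, uSL_10, uSL_11,
        h10, h2K]
    · linear_combination hd
    · ring
    · ring
    · linear_combination hd
  rw [e] at hm
  exact hm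

/-! ### chains -/

/-- iterated conjugates: `chain c 0 = y(c₀ α)`, `chain c (j+1) = g x(-c_{j+1}/c_j²) g⁻¹` with
`g = chain c j` -/
noncomputable def chain (α : K) (c : ℕ → k) : ℕ → SpecialLinearGroup (Fin 2) K
  | 0 => lSL (algebraMap k K (c 0) * α)
  | j + 1 => chain α c j * uSL (algebraMap k K (-(c (j + 1) / (c j) ^ 2))) * (chain α c j)⁻¹

theorem chain_mem (α : K) (c : ℕ → k) (j : ℕ) : chain α c j ∈ HH k α := by
  induction j with
  | zero => exact lSL_mem_HH α _
  | succ j ih =>
    exact (HH k α).mul_mem ((HH k α).mul_mem ih (uSL_mem_HH α _)) ((HH k α).inv_mem ih)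

theorem chain_10 (α : K) (c : ℕ → k) (hc : ∀ i, c i ≠ 0) (j : ℕ) :
    (chain α c j).1 1 0 = algebraMap k K (c j) * α ^ (2 ^ j) := by
  induction j with
  | zero => simp [chain, lSL_10]
  | succ j ih =>
    have hcj : algebraMap k K (c j) ≠ 0 := by simpa using hc j
    show (chain α c j * uSL _ * (chain α c j)⁻¹).1 1 0 = _
    rw [conj_uSL_10, ih, map_neg, map_div₀, map_pow, pow_succ 2 j, pow_mul]
    field_simp

/-- the cusp of a chain -/
noncomputable def zc (α : K) (c : ℕ → k) (j : ℕ) : K :=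
  ∑ i ∈ Finset.range (j + 1), (α⁻¹) ^ (2 ^ i) / algebraMap k K (c i)

theorem zc_succ (α : K) (c : ℕ → k) (j : ℕ) :
    zc α c (j + 1) = zc α c j + (α⁻¹) ^ (2 ^ (j + 1)) / algebraMap k K (c (j + 1)) := by
  rw [zc, Finset.sum_range_succ, ← zc]

theorem chain_00 (α : K) (hα : α ≠ 0) (c : ℕ → k) (hc : ∀ i, c i ≠ 0) (j : ℕ) :
    (chain α c j).1 0 0 = zc α c j * (algebraMap k K (c j) * α ^ (2 ^ j)) := by
  induction j with
  | zero =>
    have hc0 : algebraMap k K (c 0) ≠ 0 := by simpa using hc 0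
    simp only [chain, lSL_00, zc, zero_add, Finset.sum_range_one, pow_zero, pow_one]
    field_simp
  | succ j ih =>
    have hcj : algebraMap k K (c j) ≠ 0 := by simpa using hc j
    have hcj1 : algebraMap k K (c (j + 1)) ≠ 0 := by simpa using hc (j + 1)
    show (chain α c j * uSL _ * (chain α c j)⁻¹).1 0 0 = _
    rw [conj_uSL_00, ih, chain_10 α c hc j, zc_succ, map_neg, map_div₀, map_pow, pow_succ 2 j,
      pow_mul, inv_pow, inv_pow]
    field_simp
    ring

/-! ### general facts about cusps -/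

/-- two elements with the same cusp give an upper triangular element -/
theorem same_cusp {H : Subgroup (SpecialLinearGroup (Fin 2) K)}
    {g₁ g₂ : SpecialLinearGroup (Fin 2) K} (h₁ : g₁ ∈ H) (h₂ : g₂ ∈ H) (hr : g₂.1 1 0 ≠ 0)
    (hz : g₁.1 0 0 * g₂.1 1 0 = g₂.1 0 0 * g₁.1 1 0) :
    g₂⁻¹ * g₁ ∈ nSet H ∧ (g₂⁻¹ * g₁).1 0 0 = g₁.1 1 0 / g₂.1 1 0 := by
  have hd := sl_det g₂
  refine ⟨⟨H.mul_mem (H.inv_mem h₂) h₁, ?_⟩, ?_⟩
  · rw [sl_mul_10, sl_inv_10, sl_inv_11]
    linear_combination -hz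
  · rw [eq_div_iff hr, sl_mul_00, sl_inv_00, sl_inv_01]
    linear_combination g₂.1 1 1 * hz + g₁.1 1 0 * hd

/-- the unipotent element with parameter `e` fixing the cusp `z` -/
def uz (z e : K) : SpecialLinearGroup (Fin 2) K :=
  ⟨!![1 - e * z, e * z * z; -e, 1 + e * z], by rw [Matrix.det_fin_two_of]; ring⟩

theorem uz_00 (z e : K) : (uz z e).1 0 0 = 1 - e * z := by simp [uz]
theorem uz_01 (z e : K) : (uz z e).1 0 1 = e * z * z := by simp [uz]
theorem uz_10 (z e : K) : (uz z e).1 1 0 = -e := by simp [uz]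
theorem uz_11 (z e : K) : (uz z e).1 1 1 = 1 + e * z := by simp [uz]

theorem conj_eq_uz (g : SpecialLinearGroup (Fin 2) K) (a z e : K)
    (hp : g.1 0 0 = z * g.1 1 0) (he : a * g.1 1 0 * g.1 1 0 = e) :
    g * uSL a * g⁻¹ = uz z e := by
  have hd := sl_det g
  rw [hp] at hd
  subst he
  apply sl_ext <;>
    simp only [sl_mul_00, sl_mul_01, sl_mul_10, sl_mul_11, sl_inv_00, sl_inv_01, sl_inv_10,
      sl_inv_11, uSL_00, uSL_01, uSL_10, uSL_11, uz_00, uz_01, uz_10, uz_11, hp]
  · linear_combination hd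
  · ring
  · ring
  · linear_combination hd

/-- the conjugate by `x(z)` of the diagonal element `diag(c, c⁻¹)`, as a word in `x(c)`, `x(1)`
and the unipotent elements at the cusp `z` -/
theorem weyl_word (z c : K) (hc : c ≠ 0) :
    (uSL c * uz z c⁻¹ * uSL c * (uSL 1 * uz z 1 * uSL 1)⁻¹).1 1 0 = 0 ∧
    (uSL c * uz z c⁻¹ * uSL c * (uSL 1 * uz z 1 * uSL 1)⁻¹).1 0 0 = c ∧
    (uSL c * uz z c⁻¹ * uSL c * (uSL 1 * uz z 1 * uSL 1)⁻¹).1 0 1 = z * (c⁻¹ - c) := by
  refine ⟨?_, ?_, ?_⟩ <;>
    simp only [sl_mul_00, sl_mul_01, sl_mul_10, sl_mul_11, sl_inv_00, sl_inv_01, sl_inv_10,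
      sl_inv_11, uSL_00, uSL_01, uSL_10, uSL_11, uz_00, uz_01, uz_10, uz_11] <;>
    field_simp <;> ring

/-- a linear dependence among `1, β, β², β⁴, …` in a finite dimensional subspace -/
theorem exists_relation (β : K) (S : Submodule k K) [Module.Finite k S] (h1 : (1 : K) ∈ S)
    (hβ : ∀ i : ℕ, β ^ (2 ^ i) ∈ S) :
    ∃ (m : ℕ) (c₀ : k) (δ : ℕ → k), β ^ (2 ^ m) =
      algebraMap k K c₀ + ∑ i ∈ Finset.range m, algebraMap k K (δ i) * β ^ (2 ^ i) := by
  classical
  -- the family `1, β, β², β⁴, …`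
  obtain ⟨v, hv⟩ : ∃ v : ℕ → K, v = fun i => Nat.casesOn i 1 (fun j => β ^ (2 ^ j)) := ⟨_, rfl⟩
  have hv0 : v 0 = 1 := by subst hv; rfl
  have hvs : ∀ j, v (j + 1) = β ^ (2 ^ j) := fun j => by subst hv; rfl
  have hvS : ∀ i, v i ∈ S := by
    intro i
    cases i with
    | zero => rw [hv0]; exact h1
    | succ j => rw [hvs]; exact hβ j
  have key : ∀ N : ℕ, LinearIndependent k (fun i : Fin N => v i) ∨
      ∃ J < N, v J ∈ Submodule.span k (Set.range (fun i : Fin J => v i)) := by
    intro N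
    induction N with
    | zero => left; exact linearIndependent_empty_type
    | succ N ih =>
      rcases ih with hli | ⟨J, hJ, hmem⟩
      · by_cases hN : v N ∈ Submodule.span k (Set.range (fun i : Fin N => v i))
        · right; exact ⟨N, Nat.lt_succ_self N, hN⟩
        · left
          rw [linearIndependent_finSucc']
          exact ⟨hli, hN⟩
      · right; exact ⟨J, Nat.lt_succ_of_lt hJ, hmem⟩
  rcases key (Module.finrank k S + 1) with hli | ⟨J, -, hmem⟩
  · exfalso
    have hli' : LinearIndependent k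
        (fun i : Fin (Module.finrank k S + 1) => (⟨v i, hvS i⟩ : S)) := by
      apply LinearIndependent.of_comp S.subtype
      exact hli
    have := hli'.fintype_card_le_finrank
    simp at this
  · rw [Submodule.mem_span_range_iff_exists_fun] at hmem
    obtain ⟨c, hc⟩ := hmem
    cases J with
    | zero =>
      exfalso
      simp [hv0] at hc
    | succ m =>
      rw [Fin.sum_univ_succ] at hc
      refine ⟨m, c 0, fun i => if h : i < m then c (Fin.succ ⟨i, h⟩) else 0, ?_⟩
      rw [hvs] at hc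
      rw [← hc, Finset.sum_range]
      congr 1
      · simp [hv0, Algebra.smul_def]
      · apply Finset.sum_congr rfl
        intro i _
        simp [hvs, Algebra.smul_def]

/-! ### the main argument -/

/-- the key step: `α⁻¹ ∈ A` -/
theorem inv_mem_aSet (h2 : (2 : k) ≠ 0) (h3 : ∃ c : k, c ≠ 0 ∧ c * c ≠ 1) (α : K)
    (hα : IsAlgebraic k α) (hα0 : α ≠ 0) : α⁻¹ ∈ aSet (HH k α) := by
  classical
  have hfd : FiniteDimensional k (IntermediateField.adjoin k {α}) :=
    IntermediateField.adjoin.finiteDimensional hα.isIntegral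
  have hαS : α ∈ IntermediateField.adjoin k {α} := IntermediateField.mem_adjoin_simple_self k α
  have hfd2 : Module.Finite k
      (Subalgebra.toSubmodule (IntermediateField.adjoin k {α}).toSubalgebra) :=
    hfd
  obtain ⟨m, c₀, δ, hrel⟩ := exists_relation (k := k) α⁻¹
    (Subalgebra.toSubmodule (IntermediateField.adjoin k {α}).toSubalgebra)
    (one_mem (IntermediateField.adjoin k {α}))
    (fun i => pow_mem (inv_mem hαS) _)
  cases m with
  | zero =>
    have : α⁻¹ = algebraMap k K c₀ := by simpa using hrel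
    rw [this]
    exact algebraMap_mem_aSet α c₀
  | succ j =>
    have h2K : (2 : K) ≠ 0 := by
      have : algebraMap k K 2 ≠ 0 := by simpa using h2
      rwa [map_ofNat] at this
    -- the two chains
    obtain ⟨σ, hσ⟩ : ∃ σ : ℕ → k, σ = fun i => if δ i = -1 then -1 else 1 := ⟨_, rfl⟩
    have hσ0 : ∀ i, σ i ≠ 0 := by
      intro i
      rw [hσ]
      by_cases h : δ i = -1 <;> simp [h]
    have hσδ : ∀ i, σ i + δ i ≠ 0 := by
      intro i
      rw [hσ]
      by_cases h : δ i = -1
      · simp only [h, if_true]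
        intro h'
        apply h2
        linear_combination -h'
      · simp only [h, if_false]
        intro h'
        apply h
        linear_combination h'
    obtain ⟨c1, hc1⟩ : ∃ c1 : ℕ → k, c1 = fun i => if i < j + 1 then (σ i)⁻¹ else 1 :=
      ⟨_, rfl⟩
    obtain ⟨c2, hc2⟩ : ∃ c2 : ℕ → k, c2 = fun i => (σ i + δ i)⁻¹ := ⟨_, rfl⟩
    have hc1n : ∀ i, c1 i ≠ 0 := by
      intro i
      rw [hc1]
      by_cases h : i < j + 1 <;> simp [h, hσ0 i]
    have hc2n : ∀ i, c2 i ≠ 0 := by
      intro i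
      rw [hc2]
      exact inv_ne_zero (hσδ i)
    have hc1last : c1 (j + 1) = 1 := by rw [hc1]; simp
    have hsum : zc α c2 j = zc α c1 j +
        ∑ i ∈ Finset.range (j + 1), algebraMap k K (δ i) * (α⁻¹) ^ (2 ^ i) := by
      rw [zc, zc, ← Finset.sum_add_distrib]
      apply Finset.sum_congr rfl
      intro i hi
      have hi' : i < j + 1 := Finset.mem_range.1 hi
      have e1 : c1 i = (σ i)⁻¹ := by rw [hc1]; simp [hi']
      have e2 : c2 i = (σ i + δ i)⁻¹ := by rw [hc2]
      rw [e1, e2, map_inv₀, map_inv₀, div_inv_eq_mul, div_inv_eq_mul, map_add]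
      ring
    have hz : zc α c1 (j + 1) = algebraMap k K c₀ + zc α c2 j := by
      rw [zc_succ, hc1last, map_one, div_one, hrel, hsum]
      ring
    -- the coincidence
    have hg1 : uSL (algebraMap k K (-c₀)) * chain α c1 (j + 1) ∈ HH k α :=
      (HH k α).mul_mem (uSL_mem_HH α _) (chain_mem α c1 (j + 1))
    have hg2 : chain α c2 j ∈ HH k α := chain_mem α c2 j
    have hd2 : algebraMap k K (c2 j) ≠ 0 := by simpa using hc2n j
    have hαj : α ^ (2 ^ j) ≠ 0 := pow_ne_zero _ hα0
    have hr2 : (chain α c2 j).1 1 0 ≠ 0 := by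
      rw [chain_10 α c2 hc2n j]
      exact mul_ne_zero hd2 hαj
    have h110 : (uSL (algebraMap k K (-c₀)) * chain α c1 (j + 1)).1 1 0 = α ^ (2 ^ (j + 1)) := by
      rw [sl_mul_10, uSL_10, uSL_11, chain_10 α c1 hc1n (j + 1), hc1last, map_one]
      ring
    have h100 : (uSL (algebraMap k K (-c₀)) * chain α c1 (j + 1)).1 0 0 =
        zc α c2 j * α ^ (2 ^ (j + 1)) := by
      rw [sl_mul_00, uSL_00, uSL_01, chain_10 α c1 hc1n (j + 1),
        chain_00 α hα0 c1 hc1n (j + 1), hc1last, map_one, hz, map_neg]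
      ring
    obtain ⟨hh, hh00⟩ := same_cusp hg1 hg2 hr2 (by
      rw [h100, h110, chain_10 α c2 hc2n j, chain_00 α hα0 c2 hc2n j]
      ring)
    rw [h110, chain_10 α c2 hc2n j] at hh00
    -- `α^(-2^(j+1)) A ⊆ A`
    have hP : ∀ a ∈ aSet (HH k α), (α ^ (2 ^ (j + 1)))⁻¹ * a ∈ aSet (HH k α) := by
      intro a ha
      have h1 := sq_mul_mem_aSet (HH k α) (inv_mem_nSet (HH k α) hh) ha
      rw [sl_inv_00] at h1
      have h11 : (_ : SpecialLinearGroup (Fin 2) K).1 1 1 = _ :=
        eq_inv_of_mul_eq_one_right (upper_00_mul_11 hh.2)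
      rw [h11, hh00] at h1
      have h3' := smul_mem_aSet α ((c2 j)⁻¹ * (c2 j)⁻¹) h1
      have e : algebraMap k K ((c2 j)⁻¹ * (c2 j)⁻¹) *
          ((α ^ 2 ^ (j + 1) / (algebraMap k K (c2 j) * α ^ 2 ^ j))⁻¹ *
            (α ^ 2 ^ (j + 1) / (algebraMap k K (c2 j) * α ^ 2 ^ j))⁻¹ * a) =
          (α ^ (2 ^ (j + 1)))⁻¹ * a := by
        rw [map_mul, map_inv₀, pow_succ 2 j, pow_mul]
        field_simp
      rwa [e] at h3'
    -- all cusps of chains of length `j` lie in `A`
    have hQ : ∀ c : ℕ → k, (∀ i, c i ≠ 0) → zc α c j ∈ aSet (HH k α) := by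
      intro c hc
      have hd : algebraMap k K (c j) ≠ 0 := by simpa using hc j
      have huz : ∀ e : k, uz (zc α c j) (algebraMap k K e) ∈ HH k α := by
        intro e
        have ha := hP _ (algebraMap_mem_aSet α (e / (c j) ^ 2))
        have hconj := conj_eq_uz (chain α c j) _ (zc α c j) (algebraMap k K e)
          (by rw [chain_00 α hα0 c hc j, chain_10 α c hc j])
          (show (α ^ (2 ^ (j + 1)))⁻¹ * algebraMap k K (e / (c j) ^ 2) *
              (chain α c j).1 1 0 * (chain α c j).1 1 0 = algebraMap k K e by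
            rw [chain_10 α c hc j, map_div₀, map_pow, pow_succ 2 j, pow_mul]
            field_simp)
        rw [← hconj]
        exact (HH k α).mul_mem ((HH k α).mul_mem (chain_mem α c j) ha)
          ((HH k α).inv_mem (chain_mem α c j))
      obtain ⟨c', hc'0, hc'1⟩ := h3
      have hcK : algebraMap k K c' ≠ 0 := by simpa using hc'0
      have hM : uSL (algebraMap k K c') * uz (zc α c j) (algebraMap k K c')⁻¹ *
          uSL (algebraMap k K c') * (uSL 1 * uz (zc α c j) 1 * uSL 1)⁻¹ ∈ HH k α := by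
        have hu1 : uSL (1 : K) ∈ HH k α := by
          have := uSL_mem_HH (k := k) α 1
          rwa [map_one] at this
        have hz1 : uz (zc α c j) 1 ∈ HH k α := by
          have := huz 1
          rwa [map_one] at this
        have hzc : uz (zc α c j) (algebraMap k K c')⁻¹ ∈ HH k α := by
          have := huz c'⁻¹
          rwa [map_inv₀] at this
        exact (HH k α).mul_mem ((HH k α).mul_mem ((HH k α).mul_mem (uSL_mem_HH α c') hzc)
          (uSL_mem_HH α c')) ((HH k α).inv_mem ((HH k α).mul_mem ((HH k α).mul_mem hu1 hz1) hu1))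
      obtain ⟨w10, w00, w01⟩ := weyl_word (zc α c j) (algebraMap k K c') hcK
      have hpq := mul_mem_aSet_of_upper h2 α hM w10
      rw [w00, w01] at hpq
      have hne : 1 - c' * c' ≠ 0 := by
        intro h
        apply hc'1
        linear_combination -h
      have h4 := smul_mem_aSet α (1 - c' * c')⁻¹ hpq
      have e : algebraMap k K (1 - c' * c')⁻¹ *
          (algebraMap k K c' * (zc α c j * ((algebraMap k K c')⁻¹ - algebraMap k K c'))) =
          zc α c j := by
        have hne' : (1 : K) - algebraMap k K c' * algebraMap k K c' ≠ 0 := by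
          intro h
          apply hne
          have h0 : algebraMap k K (1 - c' * c') = 0 := by
            rw [map_sub, map_one, map_mul]; exact h
          exact (map_eq_zero (algebraMap k K)).1 h0
        have e0 : algebraMap k K c' * (zc α c j * ((algebraMap k K c')⁻¹ - algebraMap k K c')) =
            (1 - algebraMap k K c' * algebraMap k K c') * zc α c j := by
          field_simp
        rw [map_inv₀, map_sub, map_one, map_mul, e0, ← mul_assoc, inv_mul_cancel₀ hne', one_mul]
      rwa [e] at h4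
    -- vary the first coefficient
    have ha := hQ (fun _ => 1) (fun _ => one_ne_zero)
    have hb := hQ (fun i => if i = 0 then 2 else 1) (fun i => by
      by_cases h : i = 0 <;> simp [h, h2])
    have hdiff := sub_mem_aSet (HH k α) ha hb
    have e : zc α (fun _ => (1 : k)) j - zc α (fun i => if i = 0 then (2 : k) else 1) j
        = α⁻¹ - α⁻¹ / 2 := by
      rw [zc, zc, Finset.sum_range_succ', Finset.sum_range_succ']
      simp [map_ofNat]
    rw [e] at hdiff
    have h5 := smul_mem_aSet α (2 : k) hdiff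
    have e2 : algebraMap k K 2 * (α⁻¹ - α⁻¹ / 2) = α⁻¹ := by
      rw [map_ofNat]
      field_simp
      ring
    rwa [e2] at h5

/-- `α A ⊆ A` -/
theorem alpha_mul_mem_aSet (α : K) (hα0 : α ≠ 0) (hβ : α⁻¹ ∈ aSet (HH k α)) {a : K}
    (ha : a ∈ aSet (HH k α)) : α * a ∈ aSet (HH k α) := by
  have hl : lSL (-α) ∈ HH k α := by
    have := lSL_mem_HH (k := k) α (-1)
    rwa [map_neg, map_one, neg_one_mul] at this
  have hn : uSL α⁻¹ * lSL (-α) * uSL α⁻¹ ∈ HH k α :=
    (HH k α).mul_mem ((HH k α).mul_mem hβ hl) hβ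
  have hconj := (HH k α).mul_mem ((HH k α).mul_mem hn ha) ((HH k α).inv_mem hn)
  have e : uSL α⁻¹ * lSL (-α) * uSL α⁻¹ * uSL a * (uSL α⁻¹ * lSL (-α) * uSL α⁻¹)⁻¹ =
      lSL (α * (-(α * a))) := by
    apply sl_ext <;>
      simp only [sl_mul_00, sl_mul_01, sl_mul_10, sl_mul_11, sl_inv_00, sl_inv_01, sl_inv_10,
        sl_inv_11, uSL_00, uSL_01, uSL_10, uSL_11, lSL_00, lSL_01, lSL_10, lSL_11] <;>
      field_simp <;> ring
  rw [e, lSL_mem_iff α hα0] at hconj
  have := neg_mem_aSet (HH k α) hconj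
  rwa [neg_neg] at this

/-- `k(α) ⊆ A` -/
theorem mem_aSet_of_mem_adjoin (h2 : (2 : k) ≠ 0) (h3 : ∃ c : k, c ≠ 0 ∧ c * c ≠ 1) (α : K)
    (hα : IsAlgebraic k α) (hα0 : α ≠ 0) {x : K} (hx : x ∈ IntermediateField.adjoin k {α}) :
    x ∈ aSet (HH k α) := by
  have hβ := inv_mem_aSet h2 h3 α hα hα0
  have hx' : x ∈ Algebra.adjoin k {α} := by
    rw [← IntermediateField.adjoin_simple_toSubalgebra_of_isAlgebraic hα]
    exact hx
  have key : ∀ y ∈ Algebra.adjoin k {α}, ∀ a ∈ aSet (HH k α), y * a ∈ aSet (HH k α) := by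
    intro y hy
    induction hy using Algebra.adjoin_induction with
    | mem y hy =>
      intro a ha
      rw [Set.mem_singleton_iff.1 hy]
      exact alpha_mul_mem_aSet α hα0 hβ ha
    | algebraMap r =>
      intro a ha
      exact smul_mem_aSet α r ha
    | add y z _ _ hy hz =>
      intro a ha
      rw [add_mul]
      exact add_mem_aSet _ (hy a ha) (hz a ha)
    | mul y z _ _ hy hz =>
      intro a ha
      rw [mul_assoc]
      exact hy _ (hz a ha)
  have h1 : (1 : K) ∈ aSet (HH k α) := by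
    have := algebraMap_mem_aSet (k := k) α 1
    rwa [map_one] at this
  have := key x hx' 1 h1
  rwa [mul_one] at this

/-- **Generation of `SL₂(k(α))`**: all `x(a)`, `y(a)`, `a ∈ k(α)`, lie in the group generated
by `x(k)` and `y(k α)`. -/
theorem uSL_lSL_mem_HH (h2 : (2 : k) ≠ 0) (h3 : ∃ c : k, c ≠ 0 ∧ c * c ≠ 1) (α : K)
    (hα : IsAlgebraic k α) (hα0 : α ≠ 0) {a : K} (ha : a ∈ IntermediateField.adjoin k {α}) :
    uSL a ∈ HH k α ∧ lSL a ∈ HH k α := by
  refine ⟨mem_aSet_of_mem_adjoin h2 h3 α hα hα0 ha, ?_⟩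
  have hαS : α ∈ IntermediateField.adjoin k {α} := IntermediateField.mem_adjoin_simple_self k α
  have h := mem_aSet_of_mem_adjoin h2 h3 α hα hα0 (mul_mem (inv_mem hαS) ha)
  rw [← lSL_mem_iff α hα0] at h
  have e : α * (α⁻¹ * a) = a := by field_simp
  rwa [e] at h

end Cfsg.Agent.Lib.Helper89.Adj
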